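import Mathlib
import Cfsg.Agent.Lib.Helper93.M11U.Defs
import Cfsg.Agent.Lib.Helper91.M11Inv

set_option autoImplicit false

/-!
Package [FU] of the team project S0420: in a simple group of order `7920` with a subgroup `K`
of order `660` there are an element `f ∈ K` of order `5` and an element `u ∉ K` of order `4`
normalizing `⟨f⟩` with `u² ∈ K`.
-/

namespace Cfsg.Agent.Lib.Helper56.M11U

open Cfsg.Agent.Lib.Helper93.M11U

universe u

/-- A nontrivial element of square one normalizing a self-centralizing subgroup `⟨f⟩` of order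
five inverts `f`. -/
theorem inverts_of_sq_one {G : Type u} [Group G] (f t : G) (hf : orderOf f = 5)
    (hC : Subgroup.centralizer (Subgroup.zpowers f : Set G) = Subgroup.zpowers f)
    (ht : t ∈ Subgroup.normalizer (Subgroup.zpowers f : Set G)) (ht1 : t ≠ 1)
    (ht2 : t * t = 1) : t * f * t⁻¹ = f⁻¹ := by
  have f5 : f ^ 5 = 1 := by rw [← hf]; exact pow_orderOf_eq_one f
  have h1 : t * f * t⁻¹ ∈ Subgroup.zpowers f :=
    (Subgroup.mem_normalizer_iff.mp ht f).mp (Subgroup.mem_zpowers f)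
  obtain ⟨k, hk⟩ := Subgroup.mem_zpowers_iff.mp h1
  have hk' : f ^ (k % 5) = t * f * t⁻¹ := by
    rw [← hk]
    have h := zpow_mod_orderOf f k
    rw [hf] at h
    exact h
  have hnn : 0 ≤ k % 5 := Int.emod_nonneg _ (by norm_num)
  have hlt : k % 5 < 5 := Int.emod_lt_of_pos _ (by norm_num)
  obtain ⟨j, hj⟩ : ∃ j : ℕ, (j : ℤ) = k % 5 := ⟨(k % 5).toNat, Int.toNat_of_nonneg hnn⟩
  rw [← hj, zpow_natCast] at hk'
  have hj5 : j < 5 := by omega
  have h3 : t * (t * f * t⁻¹) * t⁻¹ = f := by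
    calc t * (t * f * t⁻¹) * t⁻¹ = (t * t) * f * (t * t)⁻¹ := by group
      _ = f := by rw [ht2]; group
  have hsq : f ^ (j * j) = f := by
    have h2 : t * f ^ j * t⁻¹ = (t * f * t⁻¹) ^ j := (conj_pow (a := t) (b := f) (i := j)).symm
    rw [← hk', h2, ← hk', ← pow_mul] at h3
    exact h3
  have hj0 : j ≠ 0 := by
    rintro rfl
    rw [pow_zero] at hk'
    have hf1 : f = 1 := by
      have h : t * f * t⁻¹ = t * 1 * t⁻¹ := by rw [← hk']; group
      exact mul_left_cancel (mul_right_cancel h)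
    rw [hf1, orderOf_one] at hf
    norm_num at hf
  have hd : 5 ∣ j * j - 1 := by
    rw [← hf]
    apply orderOf_dvd_of_pow_eq_one
    have hpos : 1 ≤ j * j := Nat.mul_pos (Nat.pos_of_ne_zero hj0) (Nat.pos_of_ne_zero hj0)
    have e : f ^ (j * j) = f ^ (j * j - 1) * f := by
      rw [← pow_succ, Nat.sub_add_cancel hpos]
    rw [e] at hsq
    exact mul_right_cancel (hsq.trans (one_mul f).symm)
  interval_cases j
  · exact absurd rfl hj0
  · -- `t` centralizes `f`
    exfalso
    rw [pow_one] at hk'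
    have hc : Commute t f := by
      show t * f = f * t
      have h : t * f * t⁻¹ * t = f * t := by rw [← hk']
      rwa [inv_mul_cancel_right] at h
    have hmem : t ∈ Subgroup.centralizer (Subgroup.zpowers f : Set G) := by
      rw [Subgroup.mem_centralizer_iff]
      intro h hh
      obtain ⟨m, rfl⟩ := Subgroup.mem_zpowers_iff.mp hh
      exact (hc.zpow_right m).eq.symm
    rw [hC] at hmem
    obtain ⟨m, rfl⟩ := Subgroup.mem_zpowers_iff.mp hmem
    have t5 : (f ^ m) ^ 5 = 1 := by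
      rw [← zpow_natCast, ← zpow_mul, mul_comm, zpow_mul, zpow_natCast, f5, one_zpow]
    have t2 : (f ^ m) ^ 2 = 1 := by rw [pow_two]; exact ht2
    apply ht1
    calc f ^ m = (f ^ m) ^ 5 * ((f ^ m) ^ 2)⁻¹ * ((f ^ m) ^ 2)⁻¹ := by group
      _ = 1 := by rw [t5, t2]; group
  · omega
  · omega
  · rw [← hk']
    exact eq_inv_of_mul_eq_one_left (by rw [← pow_succ]; exact f5)

theorem pkgFU : PkgFU.{u} := by
  intro G _ _ hS hG K hK
  have : Fact (Nat.Prime 5) := ⟨by norm_num⟩
  have : Fact (Nat.Prime 2) := ⟨by norm_num⟩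
  -- an element of order five in `K`
  obtain ⟨x, hx⟩ := exists_prime_orderOf_dvd_card' (G := ↥K) 5 (by rw [hK]; norm_num)
  obtain ⟨f, hf⟩ : ∃ f : G, f = (x : G) := ⟨_, rfl⟩
  have hfo : orderOf f = 5 := by rw [hf, Subgroup.orderOf_coe]; exact hx
  have hfK : f ∈ K := by rw [hf]; exact x.2
  have hFK : Subgroup.zpowers f ≤ K := Subgroup.zpowers_le.mpr hfK
  -- it generates a Sylow subgroup of `G`
  have hpg : IsPGroup 5 ↥(Subgroup.zpowers f) :=
    IsPGroup.of_card (n := 1) (by rw [Nat.card_zpowers, hfo]; norm_num)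
  obtain ⟨P, hP⟩ := hpg.exists_le_sylow
  obtain ⟨hP5, hN20', hC', -⟩ := Cfsg.Agent.Lib.Helper91.M11.sylow5_full hG P
  have hPeq : Subgroup.zpowers f = (P : Subgroup G) :=
    Subgroup.eq_of_le_of_card_ge hP (by rw [hP5, Nat.card_zpowers, hfo])
  rw [← hPeq] at hN20' hC'
  obtain ⟨N, hNdef⟩ : ∃ N : Subgroup G, N = Subgroup.normalizer (Subgroup.zpowers f : Set G) :=
    ⟨_, rfl⟩
  have hN20 : Nat.card ↥N = 20 := by rw [hNdef]; exact hN20'
  have hFN : Subgroup.zpowers f ≤ N := by rw [hNdef]; exact Subgroup.le_normalizer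
  -- the Sylow subgroup of `K`
  obtain ⟨FK, hFKdef⟩ : ∃ A : Subgroup ↥K, A = (Subgroup.zpowers f).subgroupOf K := ⟨_, rfl⟩
  have hFK5 : Nat.card ↥FK = 5 := by
    rw [hFKdef, Nat.card_congr (Subgroup.subgroupOfEquivOfLe hFK).toEquiv, Nat.card_zpowers, hfo]
  have hpgK : IsPGroup 5 ↥FK := IsPGroup.of_card (n := 1) (by rw [hFK5]; norm_num)
  obtain ⟨PK, hPK⟩ := hpgK.exists_le_sylow
  have hPK5 : Nat.card ↥(PK : Subgroup ↥K) = 5 := by
    obtain ⟨n, hn⟩ := IsPGroup.iff_card.mp PK.2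
    have hdvd : Nat.card ↥(PK : Subgroup ↥K) ∣ 660 := by
      have h := Subgroup.card_subgroup_dvd_card (PK : Subgroup ↥K)
      rwa [hK] at h
    have h5 : 5 ∣ Nat.card ↥(PK : Subgroup ↥K) := by
      have h := Subgroup.card_dvd_of_le hPK
      rwa [hFK5] at h
    rw [hn] at hdvd h5 ⊢
    have hn2 : n < 2 := by
      by_contra h
      push Not at h
      have h' : 5 ^ 2 ∣ 660 := dvd_trans (pow_dvd_pow 5 h) hdvd
      norm_num at h'
    interval_cases n
    · norm_num at h5
    · norm_num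
  have hPKeq : FK = (PK : Subgroup ↥K) :=
    Subgroup.eq_of_le_of_card_ge hPK (by rw [hPK5, hFK5])
  have hcount := Sylow.card_eq_index_normalizer PK
  have hmod := card_sylow_modEq_one 5 ↥K
  have hNK : Subgroup.normalizer ((PK : Subgroup ↥K) : Set ↥K) = N.subgroupOf K := by
    rw [← hPKeq, hFKdef]
    ext ⟨k, hk⟩
    rw [Subgroup.mem_normalizer_iff, Subgroup.mem_subgroupOf, hNdef, Subgroup.mem_normalizer_iff]
    constructor
    · intro h y
      constructor
      · intro hy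
        have h1 := (h ⟨y, hFK hy⟩).mp (Subgroup.mem_subgroupOf.mpr hy)
        exact Subgroup.mem_subgroupOf.mp h1
      · intro hy
        have hyK : y ∈ K := by
          have h1 : k * y * k⁻¹ ∈ K := hFK hy
          have h2 := K.mul_mem (K.mul_mem (K.inv_mem hk) h1) hk
          have e : k⁻¹ * (k * y * k⁻¹) * k = y := by group
          rwa [e] at h2
        have h1 := (h ⟨y, hyK⟩).mpr (Subgroup.mem_subgroupOf.mpr hy)
        exact Subgroup.mem_subgroupOf.mp h1
    · intro h y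
      rw [Subgroup.mem_subgroupOf, Subgroup.mem_subgroupOf]
      exact h (y : G)
  obtain ⟨w, hw⟩ : ∃ w, w = Nat.card ↥(N ⊓ K) := ⟨_, rfl⟩
  have hcardNK : Nat.card ↥(N.subgroupOf K) = w := by
    rw [hw, ← Subgroup.inf_subgroupOf_right N K]
    exact Nat.card_congr (Subgroup.subgroupOfEquivOfLe inf_le_right).toEquiv
  have hidx : (N.subgroupOf K).index * w = 660 := by
    have h := Subgroup.card_mul_index (N.subgroupOf K)
    rw [hcardNK, hK] at h
    rw [mul_comm]
    exact h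
  have hw20 : w ∣ 20 := by
    rw [hw, ← hN20]
    exact Subgroup.card_dvd_of_le inf_le_left
  have hw5 : 5 ∣ w := by
    have h := Subgroup.card_dvd_of_le (le_inf hFN hFK : Subgroup.zpowers f ≤ N ⊓ K)
    rwa [Nat.card_zpowers, hfo, ← hw] at h
  have hmod' : (N.subgroupOf K).index % 5 = 1 := by
    have h1 : (Subgroup.normalizer ((PK : Subgroup ↥K) : Set ↥K)).index =
        Nat.card (Sylow 5 ↥K) := hcount.symm
    rw [← hNK, h1]
    exact hmod
  have hw10 : w = 10 := by
    have hle : w ≤ 20 := Nat.le_of_dvd (by norm_num) hw20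
    clear hw hcardNK
    interval_cases w <;> omega
  rw [hw10] at hw
  -- an element of order four in the normalizer
  obtain ⟨S, hS4⟩ := Sylow.exists_subgroup_card_pow_prime 2 (G := ↥N) (n := 2)
    (by rw [hN20]; norm_num)
  have hinv : ∀ t : G, t ∈ N → t ≠ 1 → t * t = 1 → t * f * t⁻¹ = f⁻¹ := by
    intro t htN ht1 ht2
    exact inverts_of_sq_one f t hfo hC' (by rw [← hNdef]; exact htN) ht1 ht2
  have hex : ∃ s : ↥S, orderOf s = 4 := by
    by_contra hne
    push Not at hne
    have hsq : ∀ s : ↥S, s * s = 1 := by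
      intro s
      have hd : orderOf s ∣ 2 ^ 2 := by
        have h := orderOf_dvd_natCard s
        rwa [hS4] at h
      obtain ⟨m, hm, hmo⟩ := (Nat.dvd_prime_pow Nat.prime_two).mp hd
      have h2 : orderOf s ∣ 2 := by
        interval_cases m
        · rw [hmo]; norm_num
        · rw [hmo]; norm_num
        · exact absurd hmo (hne s)
      rw [← pow_two]
      exact orderOf_dvd_iff_pow_eq_one.mp h2
    have hnt : Nontrivial ↥S := by
      rw [← Finite.one_lt_card_iff_nontrivial, hS4]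
      norm_num
    obtain ⟨s₁, hs₁⟩ := exists_ne (1 : ↥S)
    have hz : Nat.card ↥(Subgroup.zpowers s₁) ≤ 2 := by
      rw [Nat.card_zpowers]
      apply orderOf_le_of_pow_eq_one (by norm_num)
      rw [pow_two]
      exact hsq s₁
    have hne_top : Subgroup.zpowers s₁ ≠ ⊤ := by
      intro h
      rw [h, Subgroup.card_top, hS4] at hz
      norm_num at hz
    obtain ⟨s₂, hs₂⟩ : ∃ s₂ : ↥S, s₂ ∉ Subgroup.zpowers s₁ := by
      by_contra h
      push Not at h
      exact hne_top ((Subgroup.eq_top_iff' _).mpr h)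
    have hs₂1 : s₂ ≠ 1 := fun h => hs₂ (h ▸ Subgroup.one_mem _)
    have hs12 : s₁ * s₂ ≠ 1 := by
      intro h
      apply hs₂
      have e : s₂ = s₁⁻¹ := (inv_eq_of_mul_eq_one_right h).symm
      rw [e]
      exact Subgroup.inv_mem _ (Subgroup.mem_zpowers s₁)
    -- pass to `G`
    have key : ∀ s : ↥S, s ≠ 1 → ((s : ↥N) : G) * f * ((s : ↥N) : G)⁻¹ = f⁻¹ := by
      intro s hs
      apply hinv _ (s : ↥N).2
      · intro h
        apply hs
        apply Subtype.ext
        apply Subtype.ext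
        exact h
      · have h := hsq s
        have h' := congrArg (fun z : ↥S => ((z : ↥N) : G)) h
        exact h'
    have k1 := key s₁ hs₁
    have k2 := key s₂ hs₂1
    have k12 := key (s₁ * s₂) hs12
    have e12 : (((s₁ * s₂ : ↥S) : ↥N) : G) = ((s₁ : ↥N) : G) * ((s₂ : ↥N) : G) := rfl
    rw [e12] at k12
    have hff : f = f⁻¹ := by
      calc f = (f⁻¹)⁻¹ := (inv_inv f).symm
        _ = (((s₁ : ↥N) : G) * f * ((s₁ : ↥N) : G)⁻¹)⁻¹ := by rw [k1]
        _ = ((s₁ : ↥N) : G) * f⁻¹ * ((s₁ : ↥N) : G)⁻¹ := by group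
        _ = ((s₁ : ↥N) : G) * (((s₂ : ↥N) : G) * f * ((s₂ : ↥N) : G)⁻¹) *
              ((s₁ : ↥N) : G)⁻¹ := by rw [k2]
        _ = ((s₁ : ↥N) : G) * ((s₂ : ↥N) : G) * f *
              (((s₁ : ↥N) : G) * ((s₂ : ↥N) : G))⁻¹ := by group
        _ = f⁻¹ := k12
    have hf2 : f ^ 2 = 1 := by
      rw [pow_two]
      nth_rewrite 2 [hff]
      exact mul_inv_cancel f
    have hd := orderOf_dvd_of_pow_eq_one hf2
    rw [hfo] at hd
    norm_num at hd
  obtain ⟨s, hs⟩ := hex
  obtain ⟨uu, huu⟩ : ∃ a : G, a = ((s : ↥N) : G) := ⟨_, rfl⟩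
  have huo : orderOf uu = 4 := by
    rw [huu, Subgroup.orderOf_coe, Subgroup.orderOf_coe]
    exact hs
  have huN : uu ∈ N := by rw [huu]; exact (s : ↥N).2
  have hun : uu * f * uu⁻¹ ∈ Subgroup.zpowers f := by
    rw [hNdef] at huN
    exact (Subgroup.mem_normalizer_iff.mp huN f).mp (Subgroup.mem_zpowers f)
  have huK : uu ∉ K := by
    intro h
    have hmem : uu ∈ N ⊓ K := Subgroup.mem_inf.mpr ⟨huN, h⟩
    have hd := orderOf_dvd_natCard (⟨uu, hmem⟩ : ↥(N ⊓ K))
    rw [← hw, Subgroup.orderOf_mk, huo] at hd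
    norm_num at hd
  have huuK : uu * uu ∈ K := by
    have hidx2 : (K.subgroupOf N).index = 2 := by
      have hc : Nat.card ↥(K.subgroupOf N) = 10 := by
        rw [hw, ← Subgroup.inf_subgroupOf_left K N]
        exact Nat.card_congr (Subgroup.subgroupOfEquivOfLe inf_le_left).toEquiv
      have h := Subgroup.card_mul_index (K.subgroupOf N)
      rw [hc, hN20] at h
      omega
    have h := Subgroup.mul_self_mem_of_index_two hidx2 (⟨uu, huN⟩ : ↥N)
    exact Subgroup.mem_subgroupOf.mp h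
  exact ⟨f, uu, hfo, hfK, huo, hun, huK, huuK⟩

end Cfsg.Agent.Lib.Helper56.M11U
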